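import Mathlib
import Cfsg.Agent.Lib.Classical.SL2Sylow
import Cfsg.Prelude.Def_LocalEven
import Cfsg.Prelude.Def_TwoFusion

/-!
Coordinates for a natural `SL₂(F)`-module inside an ambient group: `V ≅ F²`, `L ≅ SL₂(F)`, and a
Sylow `p`-subgroup of `L` is the upper unitriangular group.
-/

set_option autoImplicit false

open scoped MatrixGroups

namespace Cfsg.Agent.Lib.PReduced.NaturalSL2

open Cfsg.Agent.Lib.Classical.SL2Sylow

variable {G : Type*} [Group G] {F : Type*} [Field F]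

/-- Good coordinates for the data `(V, L, T)`, `T` a Sylow subgroup of `L`. -/
structure Coord (F : Type*) [Field F] (V L T : Subgroup G) where
  /-- the isomorphism with `SL₂(F)` -/
  ρ : L ≃* SL(2, F)
  /-- the isomorphism with `F²` -/
  ψ : Additive V ≃+ (Fin 2 → F)
  conj : ∀ (l : L) (v : V), ∃ w : V, (w : G) = (l : G) * (v : G) * (l : G)⁻¹ ∧
    ψ (Additive.ofMul w) =
      ((ρ l : SL(2, F)) : Matrix (Fin 2) (Fin 2) F).mulVec (ψ (Additive.ofMul v))
  mem_T : ∀ t : G, t ∈ T ↔ ∃ l : L, (l : G) = t ∧ ρ l ∈ US F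

lemma upS_mulVec (a : F) (x : Fin 2 → F) :
    ((upS a : SL(2, F)) : Matrix (Fin 2) (Fin 2) F).mulVec x = ![x 0 + a * x 1, x 1] := by
  funext i
  fin_cases i <;> simp [Matrix.mulVec, dotProduct, Fin.sum_univ_two]

lemma vec_pt (x : Fin 2 → F) : x = ![x 0, x 1] := by
  funext i
  fin_cases i <;> simp

namespace Coord

variable {V L T : Subgroup G} (C : Coord F V L T)

include C

/-- The element of `V` with coordinates `x`. -/
def vec (x : Fin 2 → F) : G := ((Additive.toMul (C.ψ.symm x) : V) : G)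

lemma vec_mem (x : Fin 2 → F) : C.vec x ∈ V := (Additive.toMul (C.ψ.symm x) : V).2

lemma exists_of_mem {v : G} (hv : v ∈ V) : ∃ x, v = C.vec x :=
  ⟨C.ψ (Additive.ofMul ⟨v, hv⟩), by simp [vec]⟩

lemma vec_add (x y : Fin 2 → F) : C.vec (x + y) = C.vec x * C.vec y := by
  simp [vec]

lemma vec_zero : C.vec 0 = 1 := by
  simp [vec]

lemma vec_neg (x : Fin 2 → F) : C.vec (-x) = (C.vec x)⁻¹ := by
  simp [vec]

lemma vec_injective : Function.Injective C.vec := by
  intro x y h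
  have h1 : (Additive.toMul (C.ψ.symm x) : V) = Additive.toMul (C.ψ.symm y) := Subtype.ext h
  have h2 : C.ψ.symm x = C.ψ.symm y := h1
  exact C.ψ.symm.injective h2

lemma vec_comm (x y : Fin 2 → F) : C.vec x * C.vec y = C.vec y * C.vec x := by
  rw [← vec_add, ← vec_add, add_comm]

lemma conj_vec (l : L) (x : Fin 2 → F) :
    (l : G) * C.vec x * (l : G)⁻¹ =
      C.vec (((C.ρ l : SL(2, F)) : Matrix (Fin 2) (Fin 2) F).mulVec x) := by
  obtain ⟨w, hw, hw2⟩ := C.conj l (Additive.toMul (C.ψ.symm x) : V)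
  have hx : C.ψ (Additive.ofMul (Additive.toMul (C.ψ.symm x) : V)) = x := by simp
  rw [hx] at hw2
  unfold vec
  rw [← hw, ← hw2]
  simp

lemma vec_eq_one_iff (x : Fin 2 → F) : C.vec x = 1 ↔ x = 0 := by
  constructor
  · intro h
    apply C.vec_injective
    rw [h, C.vec_zero]
  · rintro rfl
    exact C.vec_zero

/-- The preimage of the unipotent element `upS a`. -/
noncomputable def t (a : F) : L := C.ρ.symm (upS a)

lemma t_mem (a : F) : (C.t a : G) ∈ T :=
  (C.mem_T _).2 ⟨C.t a, rfl, by simp [t, mem_US_iff]⟩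

lemma exists_t_of_mem {s : G} (hs : s ∈ T) : ∃ a, s = (C.t a : G) := by
  obtain ⟨l, rfl, hl⟩ := (C.mem_T s).1 hs
  obtain ⟨a, ha⟩ := mem_US_iff.1 hl
  refine ⟨a, ?_⟩
  congr 1
  apply C.ρ.injective
  simp [t, ha]

lemma t_zero : (C.t (0 : F) : G) = 1 := by
  simp [t]

lemma T_le : T ≤ L := fun s hs => by
  obtain ⟨l, rfl, _⟩ := (C.mem_T s).1 hs
  exact l.2

lemma conj_t (a : F) (x : Fin 2 → F) :
    (C.t a : G) * C.vec x * (C.t a : G)⁻¹ = C.vec ![x 0 + a * x 1, x 1] := by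
  rw [C.conj_vec]
  have : C.ρ (C.t a) = upS a := by simp [t]
  rw [this, upS_mulVec]

/-- The commutator formula. -/
lemma comm_t (a : F) (x : Fin 2 → F) :
    C.vec x * (C.t a : G) * (C.vec x)⁻¹ * (C.t a : G)⁻¹ = C.vec ![-(a * x 1), 0] := by
  have h : (C.t a : G) * (C.vec x)⁻¹ * (C.t a : G)⁻¹ = C.vec ![-(x 0 + a * x 1), -x 1] := by
    have := C.conj_t a (-x)
    rw [C.vec_neg] at this
    rw [this]
    congr 1
    funext i
    fin_cases i <;> simp <;> ring
  calc C.vec x * (C.t a : G) * (C.vec x)⁻¹ * (C.t a : G)⁻¹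
      = C.vec x * ((C.t a : G) * (C.vec x)⁻¹ * (C.t a : G)⁻¹) := by group
    _ = C.vec ![-(a * x 1), 0] := by
      rw [h, ← vec_add]
      congr 1
      funext i
      fin_cases i <;> simp

/-- The fixed points of `T` on `V`. -/
lemma mem_fixed_iff {w : G} :
    w ∈ V ⊓ Subgroup.centralizer (T : Set G) ↔ ∃ a : F, w = C.vec ![a, 0] := by
  constructor
  · rintro ⟨hwV, hwC⟩
    obtain ⟨x, rfl⟩ := C.exists_of_mem hwV
    have h1 := Subgroup.mem_centralizer_iff.1 hwC _ (C.t_mem 1)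
    have h2 := C.conj_t 1 x
    have h3 : C.vec ![x 0 + 1 * x 1, x 1] = C.vec x := by
      rw [← h2, h1]
      group
    have h4 := C.vec_injective h3
    have h5 := congrFun h4 0
    simp only [Matrix.cons_val_zero] at h5
    have h6 : x 1 = 0 := by
      simpa using h5
    refine ⟨x 0, ?_⟩
    congr 1
    funext i
    fin_cases i <;> simp [h6]
  · rintro ⟨a, rfl⟩
    refine ⟨C.vec_mem _, Subgroup.mem_centralizer_iff.2 ?_⟩
    intro s hs
    obtain ⟨b, rfl⟩ := C.exists_t_of_mem hs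
    have h2 := C.conj_t b ![a, 0]
    have h3 : C.vec ![![a, 0] 0 + b * ![a, 0] 1, ![a, 0] 1] = C.vec ![a, 0] := by
      congr 1
      funext i
      fin_cases i <;> simp
    rw [h3] at h2
    exact mul_inv_eq_iff_eq_mul.1 h2

/-- If `t a` centralizes `vec x`, `a ≠ 0`, then `x 1 = 0`. -/
lemma fixed_of_t {a : F} (ha : a ≠ 0) {x : Fin 2 → F}
    (h : (C.t a : G) * C.vec x * (C.t a : G)⁻¹ = C.vec x) : x 1 = 0 := by
  rw [conj_t] at h
  have h4 := C.vec_injective h
  have h5 := congrFun h4 0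
  simp only [Matrix.cons_val_zero] at h5
  have : a * x 1 = 0 := by linear_combination h5
  exact (mul_eq_zero.1 this).resolve_left ha

/-- `⁅V, T⁆` lands in the fixed points. -/
lemma comm_le : ⁅V, T⁆ ≤ V ⊓ Subgroup.centralizer (T : Set G) := by
  rw [Subgroup.commutator_le]
  intro v hv s hs
  obtain ⟨x, rfl⟩ := C.exists_of_mem hv
  obtain ⟨a, rfl⟩ := C.exists_t_of_mem hs
  rw [commutatorElement_def, comm_t]
  exact (C.mem_fixed_iff).2 ⟨_, rfl⟩

/-- `⁅V, ⟨s⟩⁆` is all of the fixed points. -/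
lemma comm_zpowers_eq {a : F} (ha : a ≠ 0) :
    ⁅V, Subgroup.zpowers (C.t a : G)⁆ = V ⊓ Subgroup.centralizer (T : Set G) := by
  apply le_antisymm
  · refine le_trans (Subgroup.commutator_mono le_rfl ?_) C.comm_le
    rw [Subgroup.zpowers_le]
    exact C.t_mem a
  · intro w hw
    obtain ⟨b, rfl⟩ := C.mem_fixed_iff.1 hw
    have h := C.comm_t a ![0, -(b / a)]
    have e : ![-(a * (![0, -(b / a)] : Fin 2 → F) 1), (0 : F)] = ![b, 0] := by
      congr 1
      simp
      field_simp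
    rw [e] at h
    rw [← h, ← commutatorElement_def]
    exact Subgroup.commutator_mem_commutator (C.vec_mem _) (Subgroup.mem_zpowers _)

/-- `⁅V, T⁆` is all of the fixed points. -/
lemma comm_eq : ⁅V, T⁆ = V ⊓ Subgroup.centralizer (T : Set G) := by
  apply le_antisymm C.comm_le
  rw [← C.comm_zpowers_eq (one_ne_zero)]
  apply Subgroup.commutator_mono le_rfl
  rw [Subgroup.zpowers_le]
  exact C.t_mem 1

lemma fixed_comm : ⁅V ⊓ Subgroup.centralizer (T : Set G), T⁆ = ⊥ := by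
  rw [eq_bot_iff, Subgroup.commutator_le]
  rintro v ⟨-, hv⟩ s hs
  have := Subgroup.mem_centralizer_iff.1 hv s hs
  rw [Subgroup.mem_bot, commutatorElement_def, ← this]
  group

/-- The centralizer in `V` of a single nontrivial element of `T`. -/
lemma fixed_single {a : F} (ha : a ≠ 0) :
    V ⊓ Subgroup.centralizer ({(C.t a : G)} : Set G) = V ⊓ Subgroup.centralizer (T : Set G) := by
  apply le_antisymm
  · rintro w ⟨hwV, hwC⟩
    obtain ⟨x, rfl⟩ := C.exists_of_mem hwV
    have h1 := Subgroup.mem_centralizer_iff.1 hwC _ (Set.mem_singleton _)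
    have h6 : x 1 = 0 := by
      apply C.fixed_of_t ha
      rw [h1]
      group
    refine C.mem_fixed_iff.2 ⟨x 0, ?_⟩
    congr 1
    funext i
    fin_cases i <;> simp [h6]
  · rintro w ⟨hwV, hwC⟩
    refine ⟨hwV, Subgroup.mem_centralizer_iff.2 ?_⟩
    rintro s rfl
    exact Subgroup.mem_centralizer_iff.1 hwC _ (C.t_mem a)

/-- The commutators of a non-fixed vector with `T` generate the fixed points. -/
lemma closure_comm_eq {v : G} (hv : v ∈ V) (hv2 : v ∉ Subgroup.centralizer (T : Set G)) :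
    Subgroup.closure {x : G | ∃ t ∈ T, x = v * t * v⁻¹ * t⁻¹} =
      V ⊓ Subgroup.centralizer (T : Set G) := by
  obtain ⟨x, rfl⟩ := C.exists_of_mem hv
  have hx : x 1 ≠ 0 := by
    intro h0
    apply hv2
    have : C.vec x ∈ V ⊓ Subgroup.centralizer (T : Set G) := by
      refine C.mem_fixed_iff.2 ⟨x 0, ?_⟩
      congr 1
      funext i
      fin_cases i <;> simp [h0]
    exact this.2
  apply le_antisymm
  · rw [Subgroup.closure_le]
    rintro _ ⟨s, hs, rfl⟩
    obtain ⟨a, rfl⟩ := C.exists_t_of_mem hs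
    rw [comm_t]
    exact C.mem_fixed_iff.2 ⟨_, rfl⟩
  · intro w hw
    obtain ⟨b, rfl⟩ := C.mem_fixed_iff.1 hw
    apply Subgroup.subset_closure
    refine ⟨_, C.t_mem (-(b / x 1)), ?_⟩
    rw [comm_t]
    congr 1
    have : -(-(b / x 1) * x 1) = b := by
      field_simp
    rw [this]

/-- Cardinality of the fixed points. -/
lemma card_fixed [Finite F] :
    Nat.card ↥(V ⊓ Subgroup.centralizer (T : Set G)) = Nat.card F := by
  symm
  refine Nat.card_congr (Equiv.ofBijective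
    (fun a : F => (⟨C.vec ![a, 0], C.mem_fixed_iff.2 ⟨a, rfl⟩⟩ :
      ↥(V ⊓ Subgroup.centralizer (T : Set G)))) ⟨?_, ?_⟩)
  · intro a b h
    have h1 : C.vec ![a, 0] = C.vec ![b, 0] := congrArg
      (fun z : ↥(V ⊓ Subgroup.centralizer (T : Set G)) => (z : G)) h
    have h2 := congrFun (C.vec_injective h1) 0
    simpa using h2
  · rintro ⟨w, hw⟩
    obtain ⟨a, rfl⟩ := C.mem_fixed_iff.1 hw
    exact ⟨a, rfl⟩

lemma card_V [Finite F] : Nat.card V = Nat.card F ^ 2 := by
  have h : Nat.card V = Nat.card (Additive V) := rfl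
  rw [h, Nat.card_congr C.ψ.toEquiv, Nat.card_fun]
  simp

end Coord

/-- Existence of coordinates. -/
theorem exists_coord {p : ℕ} [Fact p.Prime] [Fintype F] [CharP F p] {V L : Subgroup G}
    (hnat : Cfsg.IsNaturalSL2Module F V L) (hf : L ⊓ Subgroup.centralizer (V : Set G) = ⊥)
    (S : Sylow p ↥L) (T : Subgroup G) (hT : T = ((S : Subgroup ↥L).map L.subtype)) :
    Nonempty (Coord F V L T) := by
  obtain ⟨-, ρ, ψ, hsurj, hker, hconj⟩ := hnat
  have hinj : Function.Injective ρ := by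
    rw [injective_iff_map_eq_one]
    intro l hl
    have h1 : l ∈ (Subgroup.centralizer (V : Set G)).subgroupOf L := by
      rw [← hker]
      exact hl
    have h2 : (l : G) ∈ L ⊓ Subgroup.centralizer (V : Set G) := ⟨l.2, h1⟩
    rw [hf, Subgroup.mem_bot] at h2
    exact Subtype.ext h2
  let ρ₀ : L ≃* SL(2, F) := MulEquiv.ofBijective ρ ⟨hinj, hsurj⟩
  have : Finite L := Finite.of_injective ρ hinj
  let P : Sylow p (SL(2, F)) := S.mapSurjective (f := ρ) hsurj
  obtain ⟨h, hh⟩ := exists_conj_US p P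
  have hP : ∀ l : L, l ∈ (S : Subgroup L) ↔ ∃ a, h * upS a * h⁻¹ = ρ l := by
    intro l
    rw [← mem_smul_sylowUS_iff p, hh]
    constructor
    · intro hl
      exact ⟨l, hl, rfl⟩
    · rintro ⟨l', hl', e⟩
      have : l' = l := hinj e
      rwa [← this]
  let ρ' : L ≃* SL(2, F) := ρ₀.trans (MulAut.conj h⁻¹)
  have hρ' : ∀ l : L, ρ' l = h⁻¹ * ρ l * h := by
    intro l
    change h⁻¹ * ρ l * h⁻¹⁻¹ = h⁻¹ * ρ l * h
    simp
  let ψ' : Additive V ≃+ (Fin 2 → F) :=
    ψ.trans (Matrix.SpecialLinearGroup.toLin' h⁻¹).toAddEquiv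
  have hψ' : ∀ v, ψ' v = ((h⁻¹ : SL(2, F)) : Matrix (Fin 2) (Fin 2) F).mulVec (ψ v) := by
    intro v
    exact Matrix.SpecialLinearGroup.toLin'_apply _ _
  refine ⟨⟨ρ', ψ', ?_, ?_⟩⟩
  · intro l v
    obtain ⟨w, hw, hw2⟩ := hconj l v
    refine ⟨w, hw, ?_⟩
    rw [hψ', hψ', hρ', hw2, Matrix.mulVec_mulVec, Matrix.mulVec_mulVec,
      ← Matrix.SpecialLinearGroup.coe_mul, ← Matrix.SpecialLinearGroup.coe_mul]
    congr 2
    simp only [mul_inv_cancel_right]
    rfl
  · intro t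
    rw [hT]
    constructor
    · rintro ⟨l, hl, rfl⟩
      refine ⟨l, rfl, ?_⟩
      obtain ⟨a, ha⟩ := (hP l).1 hl
      rw [hρ', ← ha]
      exact mem_US_iff.2 ⟨a, by group⟩
    · rintro ⟨l, rfl, hl⟩
      refine ⟨l, ?_, rfl⟩
      rw [hρ'] at hl
      obtain ⟨a, ha⟩ := mem_US_iff.1 hl
      refine (hP l).2 ⟨a, ?_⟩
      rw [ha]
      group

/-- An element of `SL₂` in characteristic `p` fixing a nonzero vector has `p`-th power `1`. -/
theorem pow_eq_one_of_fixed {p : ℕ} [CharP F p] (M : SL(2, F)) (u : Fin 2 → F) (hu : u ≠ 0)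
    (h : (M : Matrix (Fin 2) (Fin 2) F).mulVec u = u) : M ^ p = 1 := by
  set A : Matrix (Fin 2) (Fin 2) F := (M : Matrix (Fin 2) (Fin 2) F) with hA
  have hdet : A 0 0 * A 1 1 - A 0 1 * A 1 0 = 1 := by
    have := M.2
    rwa [Matrix.det_fin_two] at this
  have E1 : A 0 0 * u 0 + A 0 1 * u 1 = u 0 := by
    have := congrFun h 0
    simpa [Matrix.mulVec, dotProduct, Fin.sum_univ_two] using this
  have E2 : A 1 0 * u 0 + A 1 1 * u 1 = u 1 := by
    have := congrFun h 1
    simpa [Matrix.mulVec, dotProduct, Fin.sum_univ_two] using this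
  have htr : A 0 0 + A 1 1 = 2 := by
    by_cases h0 : u 0 = 0
    · have h1 : u 1 ≠ 0 := by
        intro h1
        apply hu
        funext i
        fin_cases i
        · exact h0
        · exact h1
      have : (2 - A 0 0 - A 1 1) * u 1 = 0 := by
        linear_combination (A 0 0 - 1) * E2 - A 1 0 * E1 - u 1 * hdet
      have := (mul_eq_zero.1 this).resolve_right h1
      linear_combination -this
    · have : (2 - A 0 0 - A 1 1) * u 0 = 0 := by
        linear_combination (A 1 1 - 1) * E1 - A 0 1 * E2 - u 0 * hdet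
      have := (mul_eq_zero.1 this).resolve_right h0
      linear_combination -this
  have hN : (A - 1) * (A - 1) = 0 := by
    ext i j
    fin_cases i <;> fin_cases j <;>
      simp [Matrix.mul_apply, Fin.sum_univ_two, Matrix.one_apply]
    · linear_combination (A 0 0) * htr - hdet
    · linear_combination (A 0 1) * htr
    · linear_combination (A 1 0) * htr
    · linear_combination (A 1 1) * htr - hdet
  have hpow : ∀ k : ℕ, A ^ k = 1 + (k : F) • (A - 1) := by
    intro k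
    induction k with
    | zero => simp
    | succ k ih =>
      rw [pow_succ, ih]
      have e : A = 1 + (A - 1) := by simp
      calc (1 + (k : F) • (A - 1)) * A = (1 + (k : F) • (A - 1)) * (1 + (A - 1)) := by
            rw [← e]
        _ = 1 + (k : F) • (A - 1) + (A - 1) + (k : F) • ((A - 1) * (A - 1)) := by
            rw [mul_add, add_mul, add_mul]
            simp only [one_mul, mul_one, Matrix.smul_mul]
            abel
        _ = 1 + ((k + 1 : ℕ) : F) • (A - 1) := by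
            rw [hN, smul_zero, add_zero, Nat.cast_succ, add_smul, one_smul, add_assoc]
  ext1
  rw [Matrix.SpecialLinearGroup.coe_pow, Matrix.SpecialLinearGroup.coe_one, hpow p,
    CharP.cast_eq_zero, zero_smul, add_zero]

/-- A diagonal element of `SL₂`. -/
def diagS (a : F) (ha : a ≠ 0) : SL(2, F) :=
  ⟨!![a, 0; 0, a⁻¹], by simp [Matrix.det_fin_two, ha]⟩

lemma diagS_mulVec (a : F) (ha : a ≠ 0) (x : Fin 2 → F) :
    ((diagS a ha : SL(2, F)) : Matrix (Fin 2) (Fin 2) F).mulVec x = ![a * x 0, a⁻¹ * x 1] := by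
  funext i
  fin_cases i <;> simp [diagS, Matrix.mulVec, dotProduct, Fin.sum_univ_two]

lemma diagS_mem_BS (a : F) (ha : a ≠ 0) : diagS a ha ∈ BS F := by
  rw [mem_BS_iff]
  simp [diagS]

lemma mulVec_first (M : SL(2, F)) (b : F) :
    ((M : SL(2, F)) : Matrix (Fin 2) (Fin 2) F).mulVec ![b, 0] =
      ![(M : Matrix (Fin 2) (Fin 2) F) 0 0 * b, (M : Matrix (Fin 2) (Fin 2) F) 1 0 * b] := by
  funext i
  fin_cases i <;> simp [Matrix.mulVec, dotProduct, Fin.sum_univ_two]

namespace Coord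

variable {V L T : Subgroup G} (C : Coord F V L T)

include C

/-- The elements mapping to the Borel subgroup normalize `T`. -/
lemma mem_normalizer_of_BS {l : L} (hl : C.ρ l ∈ BS F) :
    (l : G) ∈ Subgroup.normalizer (T : Set G) := by
  have hn := BS_le_normalizer hl
  rw [Subgroup.mem_normalizer_iff] at hn ⊢
  intro t
  constructor
  · intro ht
    obtain ⟨l', rfl, hl'⟩ := (C.mem_T t).1 ht
    refine (C.mem_T _).2 ⟨l * l' * l⁻¹, by simp, ?_⟩
    rw [map_mul, map_mul, map_inv]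
    exact (hn _).1 hl'
  · intro ht
    obtain ⟨l', e, hl'⟩ := (C.mem_T _).1 ht
    have ht2 : t = ((l⁻¹ * l' * l : L) : G) := by
      simp [e]
      group
    refine (C.mem_T t).2 ⟨_, ht2.symm, ?_⟩
    rw [map_mul, map_mul, map_inv]
    have hn2 := (hn ((C.ρ l)⁻¹ * C.ρ l' * C.ρ l)).2
    apply hn2
    have : C.ρ l * ((C.ρ l)⁻¹ * C.ρ l' * C.ρ l) * (C.ρ l)⁻¹ = C.ρ l' := by group
    rwa [this]

/-- The preimage of the diagonal element. -/
noncomputable def dg (a : F) (ha : a ≠ 0) : L := C.ρ.symm (diagS a ha)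

lemma dg_normalizer (a : F) (ha : a ≠ 0) :
    (C.dg a ha : G) ∈ L ⊓ Subgroup.normalizer (T : Set G) :=
  ⟨(C.dg a ha).2, C.mem_normalizer_of_BS (by simpa [dg] using diagS_mem_BS a ha)⟩

lemma conj_dg (a : F) (ha : a ≠ 0) (x : Fin 2 → F) :
    (C.dg a ha : G) * C.vec x * (C.dg a ha : G)⁻¹ = C.vec ![a * x 0, a⁻¹ * x 1] := by
  rw [C.conj_vec]
  have : C.ρ (C.dg a ha) = diagS a ha := by simp [dg]
  rw [this, diagS_mulVec]

/-- A `p'`-element of `L` is fixed-point-free on `V`. -/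
lemma fixed_eq_bot_of_coprime {p : ℕ} [CharP F p] {x : G} (hx : x ∈ L) (hx1 : x ≠ 1)
    (hc : (orderOf x).Coprime p) : V ⊓ Subgroup.centralizer ({x} : Set G) = ⊥ := by
  rw [eq_bot_iff]
  rintro w ⟨hwV, hwC⟩
  obtain ⟨u, rfl⟩ := C.exists_of_mem hwV
  rw [Subgroup.mem_bot, C.vec_eq_one_iff]
  by_contra hu
  have h1 := Subgroup.mem_centralizer_iff.1 hwC _ (Set.mem_singleton _)
  have h2 := C.conj_vec ⟨x, hx⟩ u
  have h3 : C.vec (((C.ρ ⟨x, hx⟩ : SL(2, F)) : Matrix (Fin 2) (Fin 2) F).mulVec u) = C.vec u := by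
    rw [← h2]
    change x * C.vec u * x⁻¹ = C.vec u
    rw [h1]
    group
  have h4 := pow_eq_one_of_fixed (p := p) _ u hu (C.vec_injective h3)
  rw [← map_pow] at h4
  have h5 : (⟨x, hx⟩ : L) ^ p = 1 := C.ρ.injective (by rw [h4, map_one])
  have h6 : x ^ p = 1 := by
    have := congrArg (Subtype.val) h5
    simpa using this
  have h7 := orderOf_dvd_of_pow_eq_one h6
  have h8 := Nat.Coprime.eq_one_of_dvd hc h7
  exact hx1 (orderOf_eq_one_iff.1 h8)

/-- The fixed points of a conjugate of `T`. -/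
lemma mem_fixed_conj_iff (g : L) {w : G} :
    w ∈ V ⊓ Subgroup.centralizer ((T.map (MulAut.conj (g : G)).toMonoidHom : Subgroup G) : Set G) ↔
      ∃ b : F, w = C.vec ![((C.ρ g : SL(2, F)) : Matrix (Fin 2) (Fin 2) F) 0 0 * b,
        ((C.ρ g : SL(2, F)) : Matrix (Fin 2) (Fin 2) F) 1 0 * b] := by
  constructor
  · rintro ⟨hwV, hwC⟩
    obtain ⟨x, rfl⟩ := C.exists_of_mem hwV
    have hw' : (g⁻¹ : L) * C.vec x * ((g⁻¹ : L) : G)⁻¹ ∈ V ⊓ Subgroup.centralizer (T : Set G) := by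
      rw [C.conj_vec]
      refine ⟨C.vec_mem _, Subgroup.mem_centralizer_iff.2 ?_⟩
      intro s hs
      rw [← C.conj_vec]
      have h1 := Subgroup.mem_centralizer_iff.1 hwC ((g : G) * s * (g : G)⁻¹) ⟨s, hs, rfl⟩
      simp only [Subgroup.coe_inv, inv_inv]
      calc s * ((g : G)⁻¹ * C.vec x * (g : G))
          = (g : G)⁻¹ * (((g : G) * s * (g : G)⁻¹) * C.vec x) * (g : G) := by group
        _ = (g : G)⁻¹ * (C.vec x * ((g : G) * s * (g : G)⁻¹)) * (g : G) := by rw [h1]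
        _ = (g : G)⁻¹ * C.vec x * (g : G) * s := by group
    obtain ⟨b, hb⟩ := C.mem_fixed_iff.1 hw'
    refine ⟨b, ?_⟩
    have h4 := C.conj_vec g ![b, 0]
    rw [← hb] at h4
    rw [mulVec_first] at h4
    rw [← h4]
    simp only [Subgroup.coe_inv, inv_inv]
    group
  · rintro ⟨b, rfl⟩
    have h4 := C.conj_vec g ![b, 0]
    rw [mulVec_first] at h4
    rw [← h4]
    refine ⟨?_, Subgroup.mem_centralizer_iff.2 ?_⟩
    · rw [h4]
      exact C.vec_mem _
    · rintro _ ⟨s, hs, rfl⟩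
      have h1 := Subgroup.mem_centralizer_iff.1 ((C.mem_fixed_iff).2 ⟨b, rfl⟩).2 s hs
      change (g : G) * s * (g : G)⁻¹ * ((g : G) * C.vec ![b, 0] * (g : G)⁻¹) =
        (g : G) * C.vec ![b, 0] * (g : G)⁻¹ * ((g : G) * s * (g : G)⁻¹)
      simp only [mul_assoc, inv_mul_cancel_left]
      rw [← mul_assoc s, h1, mul_assoc]

/-- An element of `L` not normalizing `T` has nonzero `(1,0)` entry. -/
lemma entry_ne_zero {g : L} (hg : (g : G) ∉ Subgroup.normalizer (T : Set G)) :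
    ((C.ρ g : SL(2, F)) : Matrix (Fin 2) (Fin 2) F) 1 0 ≠ 0 := by
  intro h
  exact hg (C.mem_normalizer_of_BS h)

/-- Decomposition of `V`. -/
theorem isInternalDirectProduct {g : L} (hg : (g : G) ∉ Subgroup.normalizer (T : Set G)) :
    Cfsg.IsInternalDirectProduct (V ⊓ Subgroup.centralizer ((T : Subgroup G) : Set G))
      (V ⊓ Subgroup.centralizer ((T.map (MulAut.conj (g : G)).toMonoidHom : Subgroup G) : Set G)) V := by
  have hc := C.entry_ne_zero hg
  refine ⟨inf_le_left, inf_le_left, ?_, ?_, ?_⟩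
  · intro a ha b hb
    obtain ⟨x, rfl⟩ := C.exists_of_mem ha.1
    obtain ⟨y, rfl⟩ := C.exists_of_mem hb.1
    exact C.vec_comm x y
  · rw [eq_bot_iff]
    rintro w ⟨hw1, hw2⟩
    obtain ⟨a, rfl⟩ := C.mem_fixed_iff.1 hw1
    obtain ⟨b, hb⟩ := (C.mem_fixed_conj_iff g).1 hw2
    have h1 := C.vec_injective hb
    have h2 := congrFun h1 1
    have h3 := congrFun h1 0
    simp only [Matrix.cons_val_one, Matrix.cons_val_zero] at h2 h3
    have hb0 : b = 0 := by
      have : ((C.ρ g : SL(2, F)) : Matrix (Fin 2) (Fin 2) F) 1 0 * b = 0 := by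
        simpa using h2.symm
      exact (mul_eq_zero.1 this).resolve_left hc
    rw [Subgroup.mem_bot, C.vec_eq_one_iff]
    rw [hb0] at h3
    simp only [mul_zero] at h3
    funext i
    fin_cases i <;> simp [h3]
  · apply le_antisymm (sup_le inf_le_left inf_le_left)
    intro w hw
    obtain ⟨x, rfl⟩ := C.exists_of_mem hw
    set a := ((C.ρ g : SL(2, F)) : Matrix (Fin 2) (Fin 2) F) 0 0 with ha
    set c := ((C.ρ g : SL(2, F)) : Matrix (Fin 2) (Fin 2) F) 1 0 with hc'
    have e : x = ![x 0 - a * (x 1 / c), 0] + ![a * (x 1 / c), c * (x 1 / c)] := by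
      funext i
      fin_cases i
      · simp
      · simp
        field_simp
    rw [e, C.vec_add]
    refine Subgroup.mul_mem_sup (C.mem_fixed_iff.2 ⟨_, rfl⟩) ?_
    exact (C.mem_fixed_conj_iff g).2 ⟨_, rfl⟩

/-- Irreducibility on the fixed points. -/
theorem irred_fixed {U : Subgroup G} (hU : U ≤ V ⊓ Subgroup.centralizer (T : Set G))
    (hN : L ⊓ Subgroup.normalizer (T : Set G) ≤ Subgroup.normalizer (U : Set G)) :
    U = ⊥ ∨ U = V ⊓ Subgroup.centralizer (T : Set G) := by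
  by_cases hb : U = ⊥
  · exact Or.inl hb
  right
  obtain ⟨⟨w, hw⟩, hw1'⟩ := Subgroup.ne_bot_iff_exists_ne_one.1 hb
  have hw1 : w ≠ 1 := fun h => hw1' (Subtype.ext h)
  obtain ⟨u, rfl⟩ := C.mem_fixed_iff.1 (hU hw)
  have hu : u ≠ 0 := by
    rintro rfl
    apply hw1
    rw [C.vec_eq_one_iff]
    funext i
    fin_cases i <;> simp
  apply le_antisymm hU
  intro z hz
  obtain ⟨c, rfl⟩ := C.mem_fixed_iff.1 hz
  by_cases hc : c = 0
  · subst hc
    have : C.vec ![(0 : F), 0] = 1 := by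
      rw [C.vec_eq_one_iff]
      funext i
      fin_cases i <;> simp
    rw [this]
    exact U.one_mem
  have ha : c / u ≠ 0 := div_ne_zero hc hu
  have h1 := (Subgroup.mem_normalizer_iff.1 (hN (C.dg_normalizer (c / u) ha)) _).1 hw
  rw [C.conj_dg] at h1
  have e : ![c / u * (![u, 0] : Fin 2 → F) 0, (c / u)⁻¹ * (![u, 0] : Fin 2 → F) 1] = ![c, 0] := by
    funext i
    fin_cases i
    · simp
      field_simp
    · simp
  rwa [e] at h1

/-- Irreducibility on the quotient. -/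
theorem irred_quot {U : Subgroup G} (hU : V ⊓ Subgroup.centralizer (T : Set G) ≤ U) (hUV : U ≤ V)
    (hN : L ⊓ Subgroup.normalizer (T : Set G) ≤ Subgroup.normalizer (U : Set G)) :
    U = V ⊓ Subgroup.centralizer (T : Set G) ∨ U = V := by
  by_cases hb : U = V ⊓ Subgroup.centralizer (T : Set G)
  · exact Or.inl hb
  right
  have : ∃ w ∈ U, w ∉ V ⊓ Subgroup.centralizer (T : Set G) := by
    by_contra hcon
    refine hb (le_antisymm (fun z hz => ?_) hU)
    by_contra hz2
    exact hcon ⟨z, hz, hz2⟩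
  obtain ⟨w, hw, hw2⟩ := this
  obtain ⟨u, rfl⟩ := C.exists_of_mem (hUV hw)
  have hu : u 1 ≠ 0 := by
    intro h0
    apply hw2
    refine C.mem_fixed_iff.2 ⟨u 0, ?_⟩
    congr 1
    funext i
    fin_cases i <;> simp [h0]
  apply le_antisymm hUV
  intro z hz
  obtain ⟨x, rfl⟩ := C.exists_of_mem hz
  by_cases hc : x 1 = 0
  · apply hU
    refine C.mem_fixed_iff.2 ⟨x 0, ?_⟩
    congr 1
    funext i
    fin_cases i <;> simp [hc]
  have ha : u 1 / x 1 ≠ 0 := div_ne_zero hu hc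
  have h1 := (Subgroup.mem_normalizer_iff.1 (hN (C.dg_normalizer (u 1 / x 1) ha)) _).1 hw
  rw [C.conj_dg] at h1
  have e : x = ![u 1 / x 1 * u 0, (u 1 / x 1)⁻¹ * u 1] + ![x 0 - u 1 / x 1 * u 0, 0] := by
    funext i
    fin_cases i
    · simp
    · simp
      field_simp
  rw [e, C.vec_add]
  exact U.mul_mem h1 (hU (C.mem_fixed_iff.2 ⟨_, rfl⟩))

end Coord

end Cfsg.Agent.Lib.PReduced.NaturalSL2
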